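import Cfsg.Agent.Lib.Theta.Poisson

/-! The theta series of an even unimodular lattice of rank 24 as a modular form of weight 12. -/

namespace Cfsg.Agent.Theta

open Complex Real Matrix

variable {B : Matrix (Fin 24) (Fin 24) ℤ}

/-- the norm form -/
def nm (B : Matrix (Fin 24) (Fin 24) ℤ) (x : Fin 24 → ℤ) : ℤ := x ⬝ᵥ (B *ᵥ x)

/-- the real matrix -/
def rm (B : Matrix (Fin 24) (Fin 24) ℤ) : Fin 24 → Fin 24 → ℝ := fun i j => (B i j : ℝ)

lemma qr_int (B : Matrix (Fin 24) (Fin 24) ℤ) (x : Fin 24 → ℤ) :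
    qr (rm B) (fun i => (x i : ℝ)) = (nm B x : ℝ) := by
  simp only [qr, rm, nm, dotProduct, mulVec, Finset.mul_sum]
  push_cast
  exact Finset.sum_congr rfl fun i _ => Finset.sum_congr rfl fun j _ => by ring

lemma qc_int (B : Matrix (Fin 24) (Fin 24) ℤ) (x : Fin 24 → ℤ) :
    qc (rm B) (fun i => (x i : ℂ)) = (nm B x : ℂ) := by
  have := qc_ofReal (rm B) (fun i => (x i : ℝ))
  rw [qr_int] at this
  simpa using this

lemma nm_nonneg (hpos : ∀ x : Fin 24 → ℤ, x ≠ 0 → 0 < x ⬝ᵥ (B *ᵥ x)) (x : Fin 24 → ℤ) :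
    0 ≤ nm B x := by
  by_cases hx : x = 0
  · subst hx; simp [nm]
  · exact (hpos x hx).le

lemma rm_mul_adj (hdet : B.det = 1) (i j : Fin 24) :
    ∑ k, rm B i k * rm B.adjugate k j = if i = j then 1 else 0 := by
  have := congrFun (congrFun (Matrix.mul_adjugate B) i) j
  rw [hdet, one_smul, Matrix.mul_apply, Matrix.one_apply] at this
  simp only [rm]
  have h2 := congrArg (Int.cast : ℤ → ℝ) this
  push_cast at h2
  exact h2

lemma adj_mul_rm (hdet : B.det = 1) (i j : Fin 24) :
    ∑ k, rm B.adjugate i k * rm B k j = if i = j then 1 else 0 := by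
  have := congrFun (congrFun (Matrix.adjugate_mul B) i) j
  rw [hdet, one_smul, Matrix.mul_apply, Matrix.one_apply] at this
  simp only [rm]
  have h2 := congrArg (Int.cast : ℤ → ℝ) this
  push_cast at h2
  exact h2

lemma rm_symm (hsymm : B.IsSymm) (i j : Fin 24) : rm B i j = rm B j i := by
  simp only [rm]; rw [hsymm.apply]

lemma adj_symm (hsymm : B.IsSymm) : B.adjugate.IsSymm := by
  unfold Matrix.IsSymm
  rw [Matrix.adjugate_transpose, hsymm.eq]

lemma qr_nonneg (hpos : ∀ x : Fin 24 → ℤ, x ≠ 0 → 0 < x ⬝ᵥ (B *ᵥ x)) (x : Fin 24 → ℝ) :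
    0 ≤ qr (rm B) x := by
  have hd : DenseRange (Pi.map (fun _ : Fin 24 => ((↑) : ℚ → ℝ))) :=
    DenseRange.piMap fun _ => Rat.denseRange_cast
  refine hd.induction_on x (isClosed_le continuous_const (continuous_qr _)) fun q => ?_
  let d : ℕ := ∏ i, (q i).den
  have hd0 : 0 < d := Finset.prod_pos fun i _ => (q i).den_pos
  have hdv : ∀ i, (q i).den ∣ d := fun i =>
    Finset.dvd_prod_of_mem (fun i => (q i).den) (Finset.mem_univ i)
  clear_value d
  have hz : ∀ i, ∃ z : ℤ, (z : ℝ) = d * (q i : ℝ) := by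
    intro i
    obtain ⟨c, hc⟩ := hdv i
    refine ⟨c * (q i).num, ?_⟩
    have : ((q i).den : ℚ) * q i = (q i).num := by rw [mul_comm]; exact Rat.mul_den_eq_num _
    have h2 : (((q i).den : ℝ)) * (q i : ℝ) = ((q i).num : ℝ) := by exact_mod_cast this
    rw [hc]; push_cast; rw [← h2]; ring
  choose z hz using hz
  have h1 : (fun i => (z i : ℝ)) = (d : ℝ) • (Pi.map (fun _ : Fin 24 => ((↑) : ℚ → ℝ)) q) := by
    funext i; simp [hz]
  have h2 := qr_int B z
  rw [h1, qr_smul] at h2
  have h3 : (0 : ℝ) ≤ (nm B z : ℝ) := by exact_mod_cast nm_nonneg hpos z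
  rw [← h2] at h3
  have : (0 : ℝ) < (d : ℝ) ^ 2 := by positivity
  exact (mul_nonneg_iff_of_pos_left this).mp h3

lemma pos_rm (hsymm : B.IsSymm) (hpos : ∀ x : Fin 24 → ℤ, x ≠ 0 → 0 < x ⬝ᵥ (B *ᵥ x))
    (hdet : B.det = 1) : Pos (rm B) := by
  intro x hx
  refine (qr_nonneg hpos x).lt_of_ne fun h0 => hx ?_
  have hs := rm_symm hsymm
  -- B x = 0
  have h1 : ∀ j, ∑ k, x k * rm B k j = 0 := by
    intro j
    set s := ∑ k, x k * rm B k j with hs'
    have key : ∀ c : ℝ, 0 ≤ c ^ 2 * rm B j j - 2 * c * s := by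
      intro c
      have e := qc_sub_smul (rm B) hs (fun i => (((Pi.single j c : Fin 24 → ℝ) i : ℝ) : ℂ))
        (fun i => (x i : ℂ)) 1
      have e0 : (fun i => (((Pi.single j c : Fin 24 → ℝ) i : ℝ) : ℂ) - 1 * (x i : ℂ)) =
          fun i => ((((Pi.single j c : Fin 24 → ℝ) - x) i : ℝ) : ℂ) := by
        funext i; simp
      rw [e0, qc_ofReal, qc_ofReal] at e
      have e1 : qr (rm B) ((Pi.single j c : Fin 24 → ℝ) - x) =
          qr (rm B) (Pi.single j c) - 2 * 1 * ∑ j', (∑ k, x k * rm B k j') *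
            (Pi.single j c : Fin 24 → ℝ) j' + 1 ^ 2 * ∑ j', (∑ k, x k * rm B k j') * x j' := by
        exact_mod_cast e
      have e2 : ∑ j', (∑ k, x k * rm B k j') * x j' = qr (rm B) x := by
        unfold qr
        rw [Finset.sum_comm]
        refine Finset.sum_congr rfl fun j _ => ?_
        rw [Finset.sum_mul]
        exact Finset.sum_congr rfl fun k _ => by ring
      have e3 : qr (rm B) (Pi.single j c) = c ^ 2 * rm B j j := by
        simp [qr, Pi.single_apply]; ring
      have e4 : ∑ j', (∑ k, x k * rm B k j') * (Pi.single j c : Fin 24 → ℝ) j' = s * c := by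
        simp [Pi.single_apply, hs']
      have := qr_nonneg hpos ((Pi.single j c : Fin 24 → ℝ) - x)
      rw [e1, e2, e3, e4, ← h0] at this
      linarith
    have hb : 0 ≤ rm B j j := by
      have := qr_nonneg hpos (Pi.single j 1)
      simpa [qr, Pi.single_apply] using this
    have h3 := key (s / (rm B j j + 1))
    have hp : 0 < rm B j j + 1 := by linarith
    have h4 : (s / (rm B j j + 1)) ^ 2 * rm B j j - 2 * (s / (rm B j j + 1)) * s =
        -(s ^ 2 * (rm B j j + 2)) / (rm B j j + 1) ^ 2 := by field_simp; ring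
    rw [h4, le_div_iff₀ (by positivity)] at h3
    have : s ^ 2 ≤ 0 := by nlinarith [sq_nonneg s]
    exact pow_eq_zero_iff (two_ne_zero) |>.mp (le_antisymm this (sq_nonneg s))
  funext i
  have : x i = ∑ j, (∑ k, x k * rm B k j) * rm B.adjugate j i := by
    simp only [Finset.sum_mul]
    rw [Finset.sum_comm]
    simp only [mul_assoc, ← Finset.mul_sum, rm_mul_adj hdet]
    simp
  rw [this]; simp [h1]

/-- the theta series -/
noncomputable def th (B : Matrix (Fin 24) (Fin 24) ℤ) (z : ℂ) : ℂ :=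
  ∑' x : Fin 24 → ℤ, cexp (π * I * z * nm B x)

lemma summable_th (hP : Pos (rm B)) {z : ℂ} (hz : 0 < z.im) :
    Summable fun x : Fin 24 → ℤ => ‖cexp (π * I * z * nm B x)‖ := by
  refine (summable_theta hP (t := -I * z) (by simpa using hz) 0).congr fun x => ?_
  rw [qc_int]; congr 2; simp only [lc, Pi.zero_apply, zero_mul, Finset.sum_const_zero]; ring

lemma th_S (hsymm : B.IsSymm) (hP : Pos (rm B)) (hdet : B.det = 1) {z : ℂ} (hz : 0 < z.im) :
    th B (-z⁻¹) = z ^ 12 * th B z := by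
  obtain ⟨κ, hκ⟩ := poisson 24 (rm B) (rm B.adjugate) (rm_symm hsymm) (rm_symm (adj_symm hsymm))
    (rm_mul_adj hdet) hP
  let e : (Fin 24 → ℤ) ≃ (Fin 24 → ℤ) :=
    { toFun := fun x => B *ᵥ x
      invFun := fun y => B.adjugate *ᵥ y
      left_inv := fun x => by simp [Matrix.adjugate_mul, hdet]
      right_inv := fun x => by simp [Matrix.mul_adjugate, hdet] }
  have he : ∀ x, nm B.adjugate (e x) = nm B x := by
    intro x
    simp only [nm, e, Equiv.coe_fn_mk, mulVec_mulVec, Matrix.adjugate_mul, hdet, one_smul,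
      one_mulVec]
    rw [dotProduct_comm]
  have key : ∀ z : ℂ, 0 < z.im → z ^ 12 * th B z = κ * th B (-z⁻¹) := by
    intro z hz
    have hz0 : z ≠ 0 := by rintro rfl; simp at hz
    have h1 := hκ (-I * z) (by simpa using hz) 0
    have e1 : ∑' x : Fin 24 → ℤ, cexp (-π * (-I * z) * qc (rm B) (fun i => (x i : ℂ)) +
        2 * π * lc 0 (fun i => (x i : ℂ))) = th B z := by
      refine tsum_congr fun x => ?_
      rw [qc_int]; congr 1; simp only [lc, Pi.zero_apply, zero_mul, Finset.sum_const_zero]; ring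
    have e2 : ∑' y : Fin 24 → ℤ, cexp (-π / (-I * z) * qc (rm B.adjugate)
        (fun i => (y i : ℂ) + I * (0 : Fin 24 → ℂ) i)) = th B (-z⁻¹) := by
      rw [← e.tsum_eq]
      refine tsum_congr fun x => ?_
      simp only [Pi.zero_apply, mul_zero, add_zero]
      rw [qc_int, he]
      congr 2
      field_simp
      simp
    have ht0 : -I * z ≠ 0 := mul_ne_zero (neg_ne_zero.mpr I_ne_zero) hz0
    have e3 : ((-I * z) ^ (1 / 2 : ℂ)) ^ 24 = z ^ 12 := by
      rw [← Complex.cpow_nat_mul]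
      have : ((24 : ℕ) : ℂ) * (1 / 2) = ((12 : ℕ) : ℂ) := by norm_num
      rw [this, Complex.cpow_natCast, mul_pow, neg_pow, show 12 = 4 * 3 by rfl, pow_mul I,
        I_pow_four]
      norm_num
    rw [e1, e2, div_pow, e3] at h1
    rw [h1]
    field_simp
  have h1 := key I (by simp)
  have hI : -I⁻¹ = I := by simp
  have hI12 : I ^ 12 = 1 := by rw [show 12 = 4 * 3 by rfl, pow_mul, I_pow_four]; simp
  rw [hI, hI12, one_mul] at h1
  have hne : th B I ≠ 0 := by
    have hs := summable_th hP (z := I) (by simp)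
    have e4 : th B I = ((∑' x : Fin 24 → ℤ, ‖cexp (π * I * I * nm B x)‖ : ℝ) : ℂ) := by
      rw [ofReal_tsum]
      refine tsum_congr fun x => ?_
      have : π * I * I * nm B x = ((-π * nm B x : ℝ) : ℂ) := by
        push_cast; linear_combination (π * nm B x) * I_mul_I
      rw [this, ← ofReal_exp, Complex.norm_real, Real.norm_eq_abs, abs_of_pos (Real.exp_pos _)]
    rw [e4]
    have := hs.tsum_pos (fun _ => norm_nonneg _) 0 (norm_pos_iff.mpr (Complex.exp_ne_zero _))
    exact_mod_cast this.ne'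
  have hκ1 : κ = 1 := by
    have : (κ - 1) * th B I = 0 := by linear_combination -h1
    exact sub_eq_zero.mp ((mul_eq_zero.mp this).resolve_right hne)
  rw [key z hz, hκ1, one_mul]

lemma th_diff (hP : Pos (rm B)) (hnn : ∀ x, 0 ≤ nm B x) {z : ℂ} (hz : 0 < z.im) :
    DifferentiableAt ℂ (th B) z := by
  have hU : IsOpen {w : ℂ | z.im / 2 < w.im} := isOpen_lt continuous_const continuous_im
  have hs := summable_th hP (z := I * (z.im / 2 : ℝ)) (by simp; positivity)
  have := differentiableOn_tsum_of_summable_norm (F := fun (x : Fin 24 → ℤ) (w : ℂ) =>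
    cexp (π * I * w * nm B x)) hs (fun x => by fun_prop) hU (fun x w hw => by
      rw [Complex.norm_exp, Complex.norm_exp]
      apply Real.exp_le_exp.mpr
      have h1 : (0 : ℝ) ≤ nm B x := by exact_mod_cast hnn x
      have h2 : z.im / 2 < w.im := hw
      simp
      have := mul_nonneg pi_pos.le h1
      nlinarith)
  exact this.differentiableAt (hU.mem_nhds (by simp; linarith))

/-- the coefficients -/
noncomputable def cf (B : Matrix (Fin 24) (Fin 24) ℤ) (m : ℕ) : ℂ :=
  ({x : Fin 24 → ℤ | nm B x = 2 * m}.ncard : ℂ)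

lemma th_hasSum (hP : Pos (rm B)) (hnn : ∀ x, 0 ≤ nm B x) (heven : ∀ x, (2 : ℤ) ∣ nm B x)
    {z : ℂ} (hz : 0 < z.im) :
    HasSum (fun m : ℕ => cf B m • Function.Periodic.qParam 1 z ^ m) (th B z) := by
  have h1 := (summable_th hP hz).of_norm.hasSum.tsum_fiberwise (fun x => (nm B x / 2).toNat)
  suffices h : (fun m : ℕ => cf B m • Function.Periodic.qParam 1 z ^ m) = _ by
    rw [h]; exact h1
  funext m
  have hs : (fun x => (nm B x / 2).toNat) ⁻¹' {m} = {x | nm B x = 2 * m} := by
    ext x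
    have := hnn x
    have := heven x
    simp only [Set.mem_preimage, Set.mem_singleton_iff, Set.mem_ofPred_eq]
    omega
  rw [hs]
  have : ∀ x : {x | nm B x = 2 * m}, cexp (π * I * z * nm B x) =
      Function.Periodic.qParam 1 z ^ m := by
    rintro ⟨x, hx⟩
    have hx' : nm B x = 2 * m := hx
    simp only [hx', Function.Periodic.qParam]
    rw [← Complex.exp_nat_mul]
    congr 1; push_cast; ring
  simp only [this]
  rw [tsum_const, cf, Nat.card_coe_set_eq]
  simp

open UpperHalfPlane ModularForm MatrixGroups SlashInvariantForm EisensteinSeries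

set_option backward.isDefEq.respectTransparency.types false in
lemma th_slash (hsymm : B.IsSymm) (hP : Pos (rm B)) (hdet : B.det = 1)
    (heven : ∀ x, (2 : ℤ) ∣ nm B x) (γ : SL(2, ℤ)) :
    (fun τ : ℍ => th B τ) ∣[(12 : ℤ)] γ = fun τ : ℍ => th B τ := by
  refine slash_action_generators_SL2Z ?_ ?_ γ
  · ext z
    suffices th B (-(↑z)⁻¹) * ((z : ℂ) ^ 12)⁻¹ = th B z by
      rw [SL_slash_apply, UpperHalfPlane.modular_S_smul]
      simpa [denom, ModularGroup.S]
    rw [th_S hsymm hP hdet z.2]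
    field_simp [z.ne_zero]
  · ext z
    suffices th B (1 + z) = th B z by
      rw [SL_slash_apply, denom, modular_T_smul, ModularGroup.T]
      simpa
    refine tsum_congr fun x => ?_
    obtain ⟨k, hk⟩ := heven x
    rw [hk, ← (Complex.exp_periodic.int_mul k) (π * Complex.I * z * (2 * k : ℤ))]
    congr 1; push_cast; ring

/-- the theta series as a modular form -/
noncomputable def thF (hsymm : B.IsSymm) (hP : Pos (rm B)) (hdet : B.det = 1)
    (hnn : ∀ x, 0 ≤ nm B x) (heven : ∀ x, (2 : ℤ) ∣ nm B x) : ModularForm 𝒮ℒ 12 where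
  toFun := fun τ : ℍ => th B τ
  slash_action_eq' A hA := by
    obtain ⟨A, rfl⟩ := hA
    exact th_slash hsymm hP hdet heven A
  holo' := by
    rw [UpperHalfPlane.mdifferentiable_iff]
    refine .congr (fun z hz => (th_diff hP hnn hz).differentiableWithinAt) fun z hz => ?_
    simp [ofComplex_apply_of_im_pos hz]
  bdd_at_cusps' hc := by
    rw [Subgroup.IsArithmetic.isCusp_iff_isCusp_SL2Z] at hc
    rw [OnePoint.isBoundedAt_iff_forall_SL2Z hc]
    intro γ _
    rw [th_slash hsymm hP hdet heven]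
    exact isBoundedAtImInfty_of_hasSum_qExpansion one_pos fun τ => th_hasSum hP hnn heven τ.2

/-- the comparison form -/
noncomputable def cmp : ModularForm 𝒮ℒ 12 :=
  (7 / 12 : ℂ) • ModularForm.mcast (by decide) (E₄.pow 3) +
    (5 / 12 : ℂ) • ModularForm.mcast (by decide) (E₆.pow 2)

lemma cmp_q : qExpansion 1 cmp =
    (7 / 12 : ℂ) • (qExpansion 1 E₄ * qExpansion 1 E₄ * qExpansion 1 E₄) +
      (5 / 12 : ℂ) • (qExpansion 1 E₆ * qExpansion 1 E₆) := by
  rw [cmp, FunLike.coe_add, ModularForm.qExpansion_add one_pos one_mem_strictPeriods_SL]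
  simp only [FunLike.coe_smul, coe_mcast,
    ModularForm.qExpansion_smul one_pos one_mem_strictPeriods_SL,
    ModularForm.qExpansion_pow one_pos one_mem_strictPeriods_SL]
  ring_nf

lemma E4c (m : ℕ) : (qExpansion 1 E₄).coeff m =
    if m = 0 then 1 else 240 * (ArithmeticFunction.sigma 3 m : ℂ) := by
  rw [E_qExpansion_coeff _ ⟨2, rfl⟩, show bernoulli 4 = -1 / 30 by decide +kernel]
  norm_num

lemma E6c (m : ℕ) : (qExpansion 1 E₆).coeff m =
    if m = 0 then 1 else -504 * (ArithmeticFunction.sigma 5 m : ℂ) := by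
  rw [E_qExpansion_coeff _ ⟨3, rfl⟩, show bernoulli 6 = 1 / 42 by decide +kernel]
  norm_num

lemma cmp_c : (qExpansion 1 cmp).coeff 0 = 1 ∧ (qExpansion 1 cmp).coeff 1 = 0 ∧
    (qExpansion 1 cmp).coeff 2 = 196560 ∧ (qExpansion 1 cmp).coeff 3 = 16773120 ∧
    (qExpansion 1 cmp).coeff 4 = 398034000 := by
  have a1 : ArithmeticFunction.sigma 3 1 = 1 := by decide +kernel
  have a2 : ArithmeticFunction.sigma 3 2 = 9 := by decide +kernel
  have a3 : ArithmeticFunction.sigma 3 3 = 28 := by decide +kernel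
  have a4 : ArithmeticFunction.sigma 3 4 = 73 := by decide +kernel
  have b1 : ArithmeticFunction.sigma 5 1 = 1 := by decide +kernel
  have b2 : ArithmeticFunction.sigma 5 2 = 33 := by decide +kernel
  have b3 : ArithmeticFunction.sigma 5 3 = 244 := by decide +kernel
  have b4 : ArithmeticFunction.sigma 5 4 = 1057 := by decide +kernel
  rw [cmp_q]
  refine ⟨?_, ?_, ?_, ?_, ?_⟩ <;>
  norm_num [PowerSeries.coeff_mul, Finset.Nat.antidiagonal_succ, E4c, E6c,
    -PowerSeries.coeff_zero_eq_constantCoeff, a1, a2, a3, a4, b1, b2, b3, b4]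

theorem counts (hsymm : B.IsSymm) (hpos : ∀ x : Fin 24 → ℤ, x ≠ 0 → 0 < x ⬝ᵥ (B *ᵥ x))
    (heven : ∀ x, (2 : ℤ) ∣ nm B x) (hdet : B.det = 1) (h2 : ∀ x, nm B x ≠ 2) :
    cf B 2 = 196560 ∧ cf B 3 = 16773120 ∧ cf B 4 = 398034000 := by
  have hP := pos_rm hsymm hpos hdet
  have hnn := nm_nonneg hpos
  let f := thF hsymm hP hdet hnn heven
  have hc : ∀ m, cf B m = (qExpansion 1 f).coeff m :=
    ModularFormClass.qExpansion_coeff_unique one_pos one_mem_strictPeriods_SL
      (fun τ => th_hasSum hP hnn heven τ.2)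
  have c0 : cf B 0 = 1 := by
    have : {x : Fin 24 → ℤ | nm B x = 2 * ((0 : ℕ) : ℤ)} = {0} := by
      ext x
      simp only [Set.mem_ofPred_eq, Set.mem_singleton_iff]
      constructor
      · intro h
        by_contra hx
        have := hpos x hx
        simp only [nm] at h
        omega
      · rintro rfl; simp [nm]
    rw [cf, this]; simp
  have c1 : cf B 1 = 0 := by
    have : {x : Fin 24 → ℤ | nm B x = 2 * ((1 : ℕ) : ℤ)} = ∅ := by
      ext x
      simpa using h2 x
    rw [cf, this]; simp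
  obtain ⟨d0, d1, d2, d3, d4⟩ := cmp_c
  have hz : f - cmp = 0 := by
    apply sturm_bound_levelOne
    rw [FunLike.coe_sub, ModularForm.qExpansion_sub one_pos one_mem_strictPeriods_SL]
    have : ((2 : ℕ) : ℕ∞) ≤ (qExpansion 1 f - qExpansion 1 cmp).order := by
      apply PowerSeries.nat_le_order
      intro i hi
      interval_cases i
      · rw [map_sub, ← hc, c0, d0, sub_self]
      · rw [map_sub, ← hc, c1, d1, sub_self]
    refine lt_of_lt_of_le ?_ this
    decide
  rw [sub_eq_zero] at hz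
  rw [hc, hc, hc, hz]
  exact ⟨d2, d3, d4⟩

end Cfsg.Agent.Theta
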