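import Mathlib

/-! Multi-dimensional Gaussian Poisson summation for positive definite real quadratic forms. -/

namespace Cfsg.Agent.Theta

open Complex Real

/-- real quadratic form -/
def qr {n : ℕ} (A : Fin n → Fin n → ℝ) (x : Fin n → ℝ) : ℝ := ∑ i, ∑ j, A i j * x i * x j

/-- complex quadratic form -/
noncomputable def qc {n : ℕ} (A : Fin n → Fin n → ℝ) (z : Fin n → ℂ) : ℂ :=
  ∑ i, ∑ j, (A i j : ℂ) * z i * z j

/-- linear form -/
noncomputable def lc {n : ℕ} (b z : Fin n → ℂ) : ℂ := ∑ i, b i * z i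

def Pos {n : ℕ} (A : Fin n → Fin n → ℝ) : Prop := ∀ x : Fin n → ℝ, x ≠ 0 → 0 < qr A x

lemma qr_smul {n : ℕ} (A : Fin n → Fin n → ℝ) (x : Fin n → ℝ) (c : ℝ) :
    qr A (c • x) = c ^ 2 * qr A x := by
  simp only [qr, Finset.mul_sum, Pi.smul_apply, smul_eq_mul]
  refine Finset.sum_congr rfl fun i _ => Finset.sum_congr rfl fun j _ => by ring

lemma continuous_qr {n : ℕ} (A : Fin n → Fin n → ℝ) : Continuous (qr A) := by
  unfold qr; fun_prop

lemma pd_of_pos {n : ℕ} {A : Fin n → Fin n → ℝ} (h : Pos A) :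
    ∃ ε : ℝ, 0 < ε ∧ ∀ x, ε * ∑ i, x i ^ 2 ≤ qr A x := by
  rcases Nat.eq_zero_or_pos n with rfl | hn
  · exact ⟨1, one_pos, fun x => by simp [qr]⟩
  have : Nonempty (Fin n) := ⟨⟨0, hn⟩⟩
  have hne : (Metric.sphere (0 : Fin n → ℝ) 1).Nonempty := ⟨fun _ => 1, by simp⟩
  obtain ⟨x0, hx0, hmin⟩ := (isCompact_sphere (0 : Fin n → ℝ) 1).exists_isMinOn hne
    (continuous_qr A).continuousOn
  have hx0' : ‖x0‖ = 1 := by simpa using hx0
  have hp : 0 < qr A x0 := h x0 (by rintro rfl; simp at hx0')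
  refine ⟨qr A x0 / n, by positivity, fun x => ?_⟩
  by_cases hx : x = 0
  · subst hx; simp [qr]
  have hnx : 0 < ‖x‖ := norm_pos_iff.mpr hx
  have h1 : qr A x0 ≤ qr A (‖x‖⁻¹ • x) := hmin (by
    simp [norm_smul, hnx.ne'])
  rw [qr_smul] at h1
  have h2 : ∑ i, x i ^ 2 ≤ n * ‖x‖ ^ 2 := by
    calc ∑ i, x i ^ 2 ≤ ∑ _i : Fin n, ‖x‖ ^ 2 := Finset.sum_le_sum fun i _ => by
          have := norm_le_pi_norm x i
          rw [Real.norm_eq_abs] at this
          rw [← sq_abs]; gcongr
      _ = n * ‖x‖ ^ 2 := by simp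
  have hn' : (0 : ℝ) < n := by exact_mod_cast hn
  calc qr A x0 / n * ∑ i, x i ^ 2 ≤ qr A x0 / n * (n * ‖x‖ ^ 2) := by gcongr
    _ = qr A x0 * ‖x‖ ^ 2 := by field_simp
    _ ≤ (‖x‖⁻¹ ^ 2 * qr A x) * ‖x‖ ^ 2 := by gcongr
    _ = qr A x := by field_simp

lemma summable_pi {n : ℕ} (f : Fin n → ℤ → ℝ) (hf : ∀ i, Summable (f i))
    (h0 : ∀ i x, 0 ≤ f i x) : Summable (fun x : Fin n → ℤ => ∏ i, f i (x i)) := by
  induction n with
  | zero => exact Summable.of_finite
  | succ n ih =>
    have h1 := ih (fun i => f i.succ) (fun i => hf _) (fun i => h0 _)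
    have h2 := (hf 0).mul_of_nonneg h1 (h0 0) (fun x => Finset.prod_nonneg fun i _ => h0 _ _)
    rw [← (Fin.consEquiv (fun _ : Fin (n + 1) => ℤ)).summable_iff]
    refine h2.congr fun p => ?_
    simp [Fin.prod_univ_succ, Fin.consEquiv]

lemma summable_one {a : ℂ} (ha : 0 < a.re) (b : ℂ) :
    Summable fun n : ℤ => ‖cexp (-π * a * n ^ 2 + 2 * π * b * n)‖ := by
  have := (summable_jacobiTheta₂_term_iff (-I * b) (I * a)).mpr (by simpa using ha)
  refine (summable_norm_iff.mpr this).congr fun n => ?_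
  unfold jacobiTheta₂_term
  congr 2
  linear_combination (π * a * n ^ 2 - 2 * π * b * n) * I_mul_I

lemma qc_ofReal {n : ℕ} (A : Fin n → Fin n → ℝ) (x : Fin n → ℝ) :
    qc A (fun i => (x i : ℂ)) = (qr A x : ℝ) := by
  simp [qc, qr]

lemma summable_theta {n : ℕ} {A : Fin n → Fin n → ℝ} (h : Pos A) {t : ℂ} (ht : 0 < t.re)
    (b : Fin n → ℂ) :
    Summable fun x : Fin n → ℤ =>
      ‖cexp (-π * t * qc A (fun i => (x i : ℂ)) + 2 * π * lc b (fun i => (x i : ℂ)))‖ := by
  obtain ⟨ε, hε, hA⟩ := pd_of_pos h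
  have h1 := summable_pi (fun i (m : ℤ) => ‖cexp (-π * (t * ε) * m ^ 2 + 2 * π * b i * m)‖)
    (fun i => summable_one (by simp; positivity) _) (fun _ _ => norm_nonneg _)
  refine h1.of_nonneg_of_le (fun _ => norm_nonneg _) fun x => ?_
  rw [← norm_prod, ← Complex.exp_sum, Complex.norm_exp, Complex.norm_exp]
  apply Real.exp_le_exp.mpr
  have e1 : qc A (fun i => (x i : ℂ)) = (qr A (fun i => (x i : ℝ)) : ℝ) := by
    rw [← qc_ofReal]; simp
  have e2 : ∑ i, (-π * (t * ε) * (x i : ℂ) ^ 2 + 2 * π * b i * x i) =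
      -π * t * ((ε * ∑ i, (x i : ℝ) ^ 2 : ℝ) : ℂ) + 2 * π * lc b (fun i => (x i : ℂ)) := by
    simp only [lc, Finset.sum_add_distrib, Finset.mul_sum]
    push_cast
    simp only [Finset.mul_sum]
    congr 1 <;> exact Finset.sum_congr rfl fun i _ => by ring
  rw [e1, e2]
  simp only [add_re, add_le_add_iff_right]
  rw [Complex.re_mul_ofReal, Complex.re_mul_ofReal]
  have : (-π * t : ℂ).re = -(π * t.re) := by simp
  rw [this]
  have := hA (fun i => (x i : ℝ))
  have hp : 0 < π * t.re := by positivity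
  nlinarith


lemma qc_succ {n : ℕ} (A : Fin (n + 1) → Fin (n + 1) → ℝ) (hA : ∀ i j, A i j = A j i)
    (z : Fin (n + 1) → ℂ) :
    qc A z = A 0 0 * z 0 ^ 2 + 2 * z 0 * ∑ j : Fin n, (A 0 j.succ : ℂ) * z j.succ +
      qc (fun i j : Fin n => A i.succ j.succ) (fun i => z i.succ) := by
  simp only [qc, Fin.sum_univ_succ, Finset.sum_add_distrib, Finset.mul_sum]
  have e1 : ∑ j : Fin n, (A j.succ 0 : ℂ) * z j.succ * z 0 =
      ∑ j : Fin n, (A 0 j.succ : ℂ) * z 0 * z j.succ :=
    Finset.sum_congr rfl fun j _ => by rw [hA]; ring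
  have e2 : ∑ j : Fin n, 2 * z 0 * ((A 0 j.succ : ℂ) * z j.succ) =
      ∑ j : Fin n, (A 0 j.succ : ℂ) * z 0 * z j.succ +
        ∑ j : Fin n, (A 0 j.succ : ℂ) * z 0 * z j.succ := by
    rw [← Finset.sum_add_distrib]; exact Finset.sum_congr rfl fun j _ => by ring
  rw [e1, e2]; ring

lemma qc_sub_smul {n : ℕ} (C : Fin n → Fin n → ℝ) (hC : ∀ i j, C i j = C j i)
    (z v : Fin n → ℂ) (c : ℂ) :
    qc C (fun i => z i - c * v i) = qc C z - 2 * c * ∑ j, (∑ k, v k * C k j) * z j +
      c ^ 2 * ∑ j, (∑ k, v k * C k j) * v j := by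
  have e1 : ∑ j, (∑ k, v k * C k j) * z j = ∑ i, ∑ j, (C i j : ℂ) * z i * v j := by
    refine Finset.sum_congr rfl fun j _ => ?_
    rw [Finset.sum_mul]
    exact Finset.sum_congr rfl fun k _ => by rw [hC]; ring
  have e2 : ∑ j, (∑ k, v k * C k j) * z j = ∑ i, ∑ j, (C i j : ℂ) * v i * z j := by
    rw [Finset.sum_comm]
    refine Finset.sum_congr rfl fun j _ => ?_
    rw [Finset.sum_mul]
    exact Finset.sum_congr rfl fun k _ => by ring
  have e3 : ∑ j, (∑ k, v k * C k j) * v j = ∑ i, ∑ j, (C i j : ℂ) * v i * v j := by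
    rw [Finset.sum_comm]
    refine Finset.sum_congr rfl fun j _ => ?_
    rw [Finset.sum_mul]
    exact Finset.sum_congr rfl fun k _ => by ring
  have e4 : qc C (fun i => z i - c * v i) = qc C z - c * ∑ i, ∑ j, (C i j : ℂ) * z i * v j -
      c * ∑ i, ∑ j, (C i j : ℂ) * v i * z j + c ^ 2 * ∑ i, ∑ j, (C i j : ℂ) * v i * v j := by
    simp only [qc, Finset.mul_sum, ← Finset.sum_sub_distrib, ← Finset.sum_add_distrib]
    exact Finset.sum_congr rfl fun i _ => Finset.sum_congr rfl fun j _ => by ring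
  rw [e4, e3]
  linear_combination c * e1 + c * e2

lemma qc_schur {n : ℕ} (A : Fin n → Fin n → ℝ) (v : Fin n → ℝ) (a : ℝ) (z : Fin n → ℂ) :
    qc (fun i j => A i j - v i * v j / a) z = qc A z - (∑ j, (v j : ℂ) * z j) ^ 2 / a := by
  rw [sq, Finset.sum_mul_sum]
  simp only [qc, Finset.sum_div, ← Finset.sum_sub_distrib]
  refine Finset.sum_congr rfl fun i _ => Finset.sum_congr rfl fun j _ => ?_
  push_cast; ring

lemma pos_inv {n : ℕ} {A C : Fin n → Fin n → ℝ} (hC : ∀ i j, C i j = C j i)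
    (hAC : ∀ i j, ∑ k, A i k * C k j = if i = j then 1 else 0) (h : Pos A) : Pos C := by
  intro x hx
  have key : ∀ i, ∑ k, A i k * (∑ j, C k j * x j) = x i := by
    intro i
    simp only [Finset.mul_sum]
    rw [Finset.sum_comm]
    simp only [← mul_assoc, ← Finset.sum_mul, hAC]
    simp
  have h1 := h (fun k => ∑ j, C k j * x j) (by
    intro h0
    apply hx
    funext i
    rw [← key i]
    have : ∀ k, ∑ j, C k j * x j = 0 := fun k => congrFun h0 k
    simp [this])
  convert h1 using 1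
  unfold qr
  have : ∀ i, ∑ j, A i j * (∑ j, C i j * x j) * (∑ k, C j k * x k) = (∑ j, C i j * x j) * x i := by
    intro i
    rw [← key i, Finset.mul_sum]
    exact Finset.sum_congr rfl fun j _ => by ring
  simp only [this]
  refine Finset.sum_congr rfl fun i _ => ?_
  rw [Finset.sum_mul]
  exact Finset.sum_congr rfl fun j _ => by ring

lemma summable_dual {n : ℕ} {C : Fin n → Fin n → ℝ} (hC : ∀ i j, C i j = C j i) (h : Pos C)
    {t : ℂ} (ht : 0 < t.re) (b : Fin n → ℂ) :
    Summable fun y : Fin n → ℤ => cexp (-π / t * qc C (fun i => (y i : ℂ) + I * b i)) := by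
  have ht0 : t ≠ 0 := by rintro rfl; simp at ht
  have ht' : 0 < (t⁻¹).re := by
    rw [inv_re]; exact div_pos ht (normSq_pos.mpr ht0)
  have h1 := (summable_theta h ht' (fun j => -I / t * ∑ k, b k * C k j)).of_norm.mul_left
    (cexp (-π / t * ((-I) ^ 2 * ∑ j, (∑ k, b k * C k j) * b j)))
  refine h1.congr fun y => ?_
  rw [← Complex.exp_add]
  congr 1
  have := qc_sub_smul C hC (fun i => (y i : ℂ)) b (-I)
  simp only [neg_mul, sub_neg_eq_add] at this
  rw [this]
  have e : lc (fun j => -I / t * ∑ k, b k * C k j) (fun i => (y i : ℂ)) =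
      -I / t * ∑ j, (∑ k, b k * C k j) * y j := by
    rw [lc, Finset.mul_sum]; exact Finset.sum_congr rfl fun j _ => by ring
  rw [e]
  field_simp
  ring

theorem poisson (n : ℕ) : ∀ (A C : Fin n → Fin n → ℝ), (∀ i j, A i j = A j i) →
    (∀ i j, C i j = C j i) → (∀ i j, ∑ k, A i k * C k j = if i = j then 1 else 0) → Pos A →
    ∃ κ : ℂ, ∀ t : ℂ, 0 < t.re → ∀ b : Fin n → ℂ,
      ∑' x : Fin n → ℤ,
        cexp (-π * t * qc A (fun i => (x i : ℂ)) + 2 * π * lc b (fun i => (x i : ℂ))) =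
      κ * (1 / t ^ (1 / 2 : ℂ)) ^ n *
        ∑' y : Fin n → ℤ, cexp (-π / t * qc C (fun i => (y i : ℂ) + I * b i)) := by
  induction n with
  | zero =>
    intro A C _ _ _ _
    exact ⟨1, fun t ht b => by simp [qc, lc]⟩
  | succ n ih =>
    intro A C hA hC hAC hpos
    set a : ℝ := A 0 0 with ha
    set v : Fin n → ℝ := fun i => A 0 i.succ with hv
    set A2 : Fin n → Fin n → ℝ := fun i j => A i.succ j.succ - v i * v j / a with hA2
    set C2 : Fin n → Fin n → ℝ := fun i j => C i.succ j.succ with hC2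
    have ha0 : 0 < a := by
      have := hpos (Pi.single 0 1) (by simp)
      simpa [qr, Fin.sum_univ_succ] using this
    have R00 : a * C 0 0 + ∑ k, v k * C 0 k.succ = 1 := by
      have := hAC 0 0
      rw [Fin.sum_univ_succ] at this
      simp only [if_true] at this
      rw [← this]
      congr 1
      exact Finset.sum_congr rfl fun k _ => by rw [hC 0]
    have R0 : ∀ j : Fin n, ∑ k, v k * C2 k j = -(a * C 0 j.succ) := by
      intro j
      have := hAC 0 j.succ
      rw [Fin.sum_univ_succ, if_neg (Fin.succ_ne_zero j).symm] at this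
      linarith
    have R2 : ∀ i j, ∑ k, A2 i k * C2 k j = if i = j then 1 else 0 := by
      intro i j
      have := hAC i.succ j.succ
      rw [Fin.sum_univ_succ] at this
      simp only [Fin.succ_inj] at this
      rw [← this]
      have e : ∑ k, A2 i k * C2 k j = ∑ k : Fin n, A i.succ k.succ * C k.succ j.succ -
          v i / a * ∑ k, v k * C2 k j := by
        rw [Finset.mul_sum, ← Finset.sum_sub_distrib]
        exact Finset.sum_congr rfl fun k _ => by simp only [hA2, hC2]; ring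
      rw [e, R0, hA i.succ 0]
      simp only [hv]
      field_simp
      ring
    have hpos2 : Pos A2 := by
      intro x hx
      have h1 := hpos (Fin.cons (-(∑ j, v j * x j) / a) x) (by
        intro h0; apply hx; funext i
        simpa using congrFun h0 i.succ)
      have e1 := qc_succ A hA (fun i => ((Fin.cons (-(∑ j, v j * x j) / a) x : Fin (n+1) → ℝ) i : ℂ))
      have e2 := qc_schur (fun i j => A i.succ j.succ) v a (fun i => (x i : ℂ))
      rw [qc_ofReal] at e1 e2
      simp only [Fin.cons_zero, Fin.cons_succ] at e1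
      have : qr A2 x = qr A (Fin.cons (-(∑ j, v j * x j) / a) x) := by
        apply Complex.ofReal_injective
        rw [e1, e2]
        have : (a : ℂ) ≠ 0 := by exact_mod_cast ha0.ne'
        simp only [hv, ← ha]
        push_cast
        field_simp
        ring
      rwa [this]
    obtain ⟨κ, hκ⟩ := ih A2 C2 (fun i j => by simp only [hA2]; rw [hA, mul_comm])
      (fun i j => hC _ _) R2 hpos2
    refine ⟨κ * (1 / (a : ℂ) ^ (1 / 2 : ℂ)), fun t ht b => ?_⟩
    have ht0 : t ≠ 0 := by rintro rfl; simp at ht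
    have haC : (a : ℂ) ≠ 0 := by exact_mod_cast ha0.ne'
    have hta : 0 < (t * a).re := by simp; positivity
    -- the first sum
    have S1 := (summable_theta hpos ht b).of_norm
    have S3 := summable_dual hC (pos_inv hC hAC hpos) ht b
    let e := Fin.consEquiv (fun _ : Fin (n + 1) => ℤ)
    rw [← e.summable_iff] at S1 S3
    rw [← e.tsum_eq, ← e.tsum_eq]
    simp only [Function.comp_def] at S1 S3
    let b2 : ℤ → Fin n → ℂ := fun y0 i => b i.succ + I / a * (y0 + I * b 0) * v i
    let G : ℤ → (Fin n → ℤ) → ℂ := fun y0 x =>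
      cexp (-π / (t * a) * (y0 + I * b 0) ^ 2) *
        cexp (-π * t * qc A2 (fun i => (x i : ℂ)) + 2 * π * lc (b2 y0) (fun i => (x i : ℂ)))
    have lcb2 : ∀ (y0 : ℤ) (x : Fin n → ℤ), lc (b2 y0) (fun i => (x i : ℂ)) =
        lc (fun i => b i.succ) (fun i => (x i : ℂ)) +
          I / a * (y0 + I * b 0) * ∑ j, (v j : ℂ) * x j := by
      intro y0 x
      simp only [lc, b2, Finset.mul_sum, ← Finset.sum_add_distrib]
      exact Finset.sum_congr rfl fun j _ => by ring
    have step1 : ∀ x : Fin n → ℤ, ∑' x0 : ℤ,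
        cexp (-π * t * qc A (fun i => (e (x0, x) i : ℂ)) +
          2 * π * lc b (fun i => (e (x0, x) i : ℂ))) =
        1 / (t * a) ^ (1 / 2 : ℂ) * ∑' y0, G y0 x := by
      intro x
      have h1 := Complex.tsum_exp_neg_quadratic hta (b 0 - t * ∑ j, (v j : ℂ) * x j)
      have h2 : ∀ x0 : ℤ, cexp (-π * t * qc A (fun i => (e (x0, x) i : ℂ)) +
          2 * π * lc b (fun i => (e (x0, x) i : ℂ))) =
          cexp (-π * t * qc (fun i j => A i.succ j.succ) (fun i => (x i : ℂ)) +
            2 * π * lc (fun i => b i.succ) (fun i => (x i : ℂ))) *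
          cexp (-π * (t * a) * x0 ^ 2 + 2 * π * (b 0 - t * ∑ j, (v j : ℂ) * x j) * x0) := by
        intro x0
        rw [← Complex.exp_add, qc_succ A hA]
        congr 1
        simp only [lc, Fin.sum_univ_succ, e, Fin.consEquiv_apply, Fin.cons_zero, Fin.cons_succ,
          hv, ← ha]
        ring
      simp only [h2]
      rw [tsum_mul_left, h1, mul_left_comm, ← tsum_mul_left]
      congr 1
      refine tsum_congr fun y0 => ?_
      simp only [G]
      rw [← Complex.exp_add, ← Complex.exp_add, lcb2, hA2, qc_schur]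
      congr 1
      field_simp
      linear_combination (t ^ 2 * (∑ j, (v j : ℂ) * x j) ^ 2 * (-1)) * I_mul_I
    have SG : Summable (Function.uncurry G) := by
      have h1 : Summable fun y0 : ℤ => ‖cexp (-π / (t * a) * (y0 + I * b 0) ^ 2)‖ := by
        have hta0 : t * a ≠ 0 := mul_ne_zero ht0 haC
        have ht' : 0 < ((t * a)⁻¹).re := by
          rw [inv_re]; exact div_pos hta (normSq_pos.mpr hta0)
        have := (summable_one ht' (-I * b 0 / (t * a))).mul_left
          ‖cexp (-π / (t * a) * (I * b 0) ^ 2)‖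
        refine this.congr fun y0 => ?_
        rw [← norm_mul, ← Complex.exp_add]
        congr 2
        field_simp
        ring
      have h2 := summable_theta hpos2 ht (b2 0)
      refine Summable.of_norm ((h1.mul_of_nonneg h2 (fun _ => norm_nonneg _)
        (fun _ => norm_nonneg _)).congr fun p => ?_)
      obtain ⟨y0, x⟩ := p
      simp only [Function.uncurry, G, norm_mul]
      congr 1
      rw [Complex.norm_exp, Complex.norm_exp, lcb2, lcb2]
      congr 1
      have : ∑ j, (v j : ℂ) * x j = ((∑ j, v j * x j : ℝ) : ℂ) := by push_cast; rfl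
      rw [this]
      generalize (∑ j, v j * x j : ℝ) = s
      have e1 : I / a * ((y0 : ℂ) + I * b 0) * s =
          I / a * (((0 : ℤ) : ℂ) + I * b 0) * s + ((y0 * s / a : ℝ) : ℂ) * I := by
        push_cast; ring
      rw [e1]
      simp only [mul_add, add_re, add_assoc, add_right_inj]
      simp
    have step2 : ∀ y0 : ℤ, ∑' x, G y0 x = κ * (1 / t ^ (1 / 2 : ℂ)) ^ n *
        ∑' y : Fin n → ℤ, cexp (-π / t * qc C (fun i => (e (y0, y) i : ℂ) + I * b i)) := by
      intro y0
      simp only [G]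
      rw [tsum_mul_left, hκ t ht, mul_left_comm, ← tsum_mul_left]
      congr 1
      refine tsum_congr fun y => ?_
      rw [← Complex.exp_add, qc_succ C hC]
      congr 1
      have e1 : (fun i => (y i : ℂ) + I * b2 y0 i) =
          fun i => ((y i : ℂ) + I * b i.succ) - ((y0 + I * b 0) / a) * v i := by
        funext i
        simp only [b2]
        linear_combination ((y0 + I * b 0) / a * v i) * I_mul_I
      rw [e1, qc_sub_smul C2 (fun i j => hC _ _)]
      have R0' : ∀ j : Fin n, ∑ k, (v k : ℂ) * C2 k j = -(a * C 0 j.succ) := by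
        intro j; exact_mod_cast R0 j
      have R00' : (a : ℂ) * C 0 0 + ∑ k, (v k : ℂ) * C 0 k.succ = 1 := by exact_mod_cast R00
      simp only [R0', e, Fin.consEquiv_apply, Fin.cons_zero, Fin.cons_succ]
      have e2 : ∑ j : Fin n, -((a : ℂ) * C 0 j.succ) * ((y j : ℂ) + I * b j.succ) =
          -a * ∑ j : Fin n, (C 0 j.succ : ℂ) * ((y j : ℂ) + I * b j.succ) := by
        rw [Finset.mul_sum]; exact Finset.sum_congr rfl fun j _ => by ring
      have e3 : ∑ j : Fin n, -((a : ℂ) * C 0 j.succ) * (v j : ℂ) =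
          -a * ∑ j : Fin n, (v j : ℂ) * C 0 j.succ := by
        rw [Finset.mul_sum]; exact Finset.sum_congr rfl fun j _ => by ring
      rw [e2, e3]
      have e4 : ∑ j : Fin n, (v j : ℂ) * C 0 j.succ = 1 - a * C 0 0 := by
        linear_combination R00'
      rw [e4]
      field_simp
      ring
    have c1 := Summable.tsum_comm (f := fun (x0 : ℤ) (x : Fin n → ℤ) =>
      cexp (-π * t * qc A (fun i => (e (x0, x) i : ℂ)) +
          2 * π * lc b (fun i => (e (x0, x) i : ℂ)))) S1
    rw [S1.tsum_prod, S3.tsum_prod, ← c1]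
    simp only [step1]
    rw [tsum_mul_left, SG.tsum_comm]
    simp only [step2]
    rw [tsum_mul_left]
    have e5 : (t * a) ^ (1 / 2 : ℂ) = (a : ℂ) ^ (1 / 2 : ℂ) * t ^ (1 / 2 : ℂ) := by
      rw [mul_comm t, Complex.cpow_def_of_ne_zero (mul_ne_zero haC ht0),
        Complex.cpow_def_of_ne_zero haC, Complex.cpow_def_of_ne_zero ht0,
        Complex.log_ofReal_mul ha0 ht0, ← Complex.exp_add, Complex.ofReal_log ha0.le]
      congr 1; ring
    rw [e5]
    ring

end Cfsg.Agent.Theta
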